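import Mathlib.LinearAlgebra.Matrix.GeneralLinearGroup.Card
import Mathlib.LinearAlgebra.Matrix.Transvection
import Mathlib.GroupTheory.Subgroup.Centralizer
import Mathlib.Data.ZMod.Basic
import Mathlib.Algebra.Field.ZMod

/-!
# The centraliser of a transvection in `SL₅(𝔽₂)`
-/

set_option autoImplicit false

namespace Cfsg.Agent.Lib.SL5

open Matrix

abbrev M5 := Matrix (Fin 5) (Fin 5) (ZMod 2)
abbrev M3 := Matrix (Fin 3) (Fin 3) (ZMod 2)

/-- The lower right block of a `5 × 5` matrix. -/
def block3 (g : M5) : M3 := Matrix.of fun i j : Fin 3 => g i.succ.succ j.succ.succ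

theorem det_of_shape (g : M5) (h0 : ∀ i : Fin 4, g i.succ 0 = 0)
    (h1 : ∀ j : Fin 3, g 1 j.succ.succ = 0) : g.det = g 0 0 * (g 1 1 * (block3 g).det) := by
  rw [Matrix.det_succ_column_zero, Fin.sum_univ_succ]
  have h2 : ∑ i : Fin 4, (-1 : ZMod 2) ^ (i.succ : ℕ) * g i.succ 0 *
      (g.submatrix i.succ.succAbove Fin.succ).det = 0 := by
    apply Finset.sum_eq_zero
    intro i _
    rw [h0 i]
    simp
  have h4 : (g.submatrix Fin.succ Fin.succ).det = g 1 1 * (block3 g).det := by
    rw [Matrix.det_succ_row_zero, Fin.sum_univ_succ]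
    have h3 : ∑ j : Fin 3, (-1 : ZMod 2) ^ (j.succ : ℕ) * (g.submatrix Fin.succ Fin.succ) 0 j.succ *
        ((g.submatrix Fin.succ Fin.succ).submatrix Fin.succ j.succ.succAbove).det = 0 := by
      apply Finset.sum_eq_zero
      intro j _
      have : (g.submatrix Fin.succ Fin.succ) 0 j.succ = 0 := h1 j
      rw [this]
      simp
    rw [h3, add_zero]
    simp only [Fin.val_zero, pow_zero, one_mul, Fin.succAbove_zero]
    rfl
  rw [h2, add_zero]
  simp only [Fin.val_zero, pow_zero, one_mul, Fin.succAbove_zero]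
  rw [h4]

/-- The entries of a matrix commuting with the elementary matrix. -/
theorem entry_of_comm (g : M5) (h : Matrix.single (0 : Fin 5) (1 : Fin 5) (1 : ZMod 2) * g =
    g * Matrix.single (0 : Fin 5) (1 : Fin 5) (1 : ZMod 2)) :
    (∀ i : Fin 4, g i.succ 0 = 0) ∧ (∀ j : Fin 3, g 1 j.succ.succ = 0) ∧ g 1 1 = g 0 0 := by
  refine ⟨fun i => ?_, fun j => ?_, ?_⟩
  · have h1 := congrFun (congrFun h i.succ) 1
    rw [Matrix.single_mul_apply_of_ne _ _ _ _ _ (Fin.succ_ne_zero i), Matrix.mul_single_apply_same] at h1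
    simpa using h1.symm
  · have h1 := congrFun (congrFun h 0) j.succ.succ
    have hne : j.succ.succ ≠ (1 : Fin 5) := by
      intro h
      have := congrArg Fin.val h
      simp at this
    rw [Matrix.single_mul_apply_same, Matrix.mul_single_apply_of_ne _ _ _ _ _ hne] at h1
    simpa using h1
  · have h1 := congrFun (congrFun h 0) 1
    rw [Matrix.single_mul_apply_same, Matrix.mul_single_apply_same] at h1
    simpa using h1

/-- The matrix with given block. -/
def build (A : M3) (a : Fin 3 → ZMod 2) (t : ZMod 2) (b : Fin 3 → ZMod 2) : M5 :=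
  !![1, t, a 0, a 1, a 2;
     0, 1, 0, 0, 0;
     0, b 0, A 0 0, A 0 1, A 0 2;
     0, b 1, A 1 0, A 1 1, A 1 2;
     0, b 2, A 2 0, A 2 1, A 2 2]

theorem block3_build (A : M3) (a : Fin 3 → ZMod 2) (t : ZMod 2) (b : Fin 3 → ZMod 2) :
    block3 (build A a t b) = A := by
  ext i j
  fin_cases i <;> fin_cases j <;> rfl

theorem det_build (A : M3) (a : Fin 3 → ZMod 2) (t : ZMod 2) (b : Fin 3 → ZMod 2) :
    (build A a t b).det = A.det := by
  rw [det_of_shape]
  · rw [block3_build]
    simp [build]
  · intro i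
    fin_cases i <;> rfl
  · intro j
    fin_cases j <;> rfl

theorem comm_build (A : M3) (a : Fin 3 → ZMod 2) (t : ZMod 2) (b : Fin 3 → ZMod 2) :
    Matrix.single (0 : Fin 5) (1 : Fin 5) (1 : ZMod 2) * build A a t b =
      build A a t b * Matrix.single (0 : Fin 5) (1 : Fin 5) (1 : ZMod 2) := by
  ext i j
  by_cases hi : i = 0
  · subst hi
    rw [Matrix.single_mul_apply_same]
    by_cases hj : j = 1
    · subst hj
      rw [Matrix.mul_single_apply_same]
      rfl
    · rw [Matrix.mul_single_apply_of_ne _ _ _ _ _ hj]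
      fin_cases j
      · rfl
      · exact absurd rfl hj
      · rfl
      · rfl
      · rfl
  · rw [Matrix.single_mul_apply_of_ne _ _ _ _ _ hi]
    by_cases hj : j = 1
    · subst hj
      rw [Matrix.mul_single_apply_same]
      fin_cases i
      · exact absurd rfl hi
      · rfl
      · rfl
      · rfl
      · rfl
    · rw [Matrix.mul_single_apply_of_ne _ _ _ _ _ hj]

abbrev SLfive := Matrix.SpecialLinearGroup (Fin 5) (ZMod 2)

theorem comm_iff (s g : SLfive) (hs : (s : M5) = Matrix.transvection 0 1 1) :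
    g ∈ Subgroup.centralizer ({s} : Set SLfive) ↔
      Matrix.single (0 : Fin 5) (1 : Fin 5) (1 : ZMod 2) * (g : M5) =
        (g : M5) * Matrix.single (0 : Fin 5) (1 : Fin 5) (1 : ZMod 2) := by
  rw [Subgroup.mem_centralizer_singleton_iff]
  have h1 : (g * s : SLfive) = s * g ↔ ((g * s : SLfive) : M5) = ((s * g : SLfive) : M5) :=
    ⟨fun h => by rw [h], fun h => Subtype.ext h⟩
  rw [h1, Matrix.SpecialLinearGroup.coe_mul, Matrix.SpecialLinearGroup.coe_mul, hs, Matrix.transvection,
    Matrix.mul_add, Matrix.add_mul, Matrix.mul_one, Matrix.one_mul]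
  constructor
  · intro h
    exact (add_left_cancel h).symm
  · intro h
    rw [h]

/-- Parameter type. -/
abbrev Par := GL (Fin 3) (ZMod 2) × (Fin 3 → ZMod 2) × ZMod 2 × (Fin 3 → ZMod 2)

theorem card_par : Nat.card Par = 21504 := by
  have : Fact (Nat.Prime 2) := ⟨Nat.prime_two⟩
  rw [Nat.card_prod, Nat.card_prod, Nat.card_prod, Matrix.card_GL_field 3 (𝔽 := ZMod 2)]
  simp only [Nat.card_eq_fintype_card, Fintype.card_fun, Fintype.card_fin, ZMod.card]
  simp [Fin.prod_univ_succ]

theorem card_centralizer (s : SLfive) (hs : (s : M5) = Matrix.transvection 0 1 1) :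
    Nat.card (Subgroup.centralizer ({s} : Set SLfive)) = 21504 := by
  rw [← card_par]
  symm
  have hdet : ∀ p : Par, (build (p.1 : M3) p.2.1 p.2.2.1 p.2.2.2).det = 1 := by
    intro p
    rw [det_build]
    have h1 : ((p.1 : M3)).det ≠ 0 := by
      have h2 := (Matrix.isUnit_iff_isUnit_det (p.1 : M3)).1 p.1.isUnit
      exact h2.ne_zero
    generalize (p.1 : M3).det = d at h1
    revert d
    decide
  let F : Par → Subgroup.centralizer ({s} : Set SLfive) := fun p =>
    ⟨⟨build (p.1 : M3) p.2.1 p.2.2.1 p.2.2.2, hdet p⟩, (comm_iff s _ hs).2 (comm_build _ _ _ _)⟩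
  apply Nat.card_eq_of_bijective F
  constructor
  · rintro ⟨A, a, t, b⟩ ⟨A', a', t', b'⟩ h
    have h1 : build (A : M3) a t b = build (A' : M3) a' t' b' :=
      congrArg (fun z : Subgroup.centralizer ({s} : Set SLfive) => ((z : SLfive) : M5)) h
    have hA : (A : M3) = (A' : M3) := by
      rw [← block3_build (A : M3) a t b, ← block3_build (A' : M3) a' t' b', h1]
    have ha : a = a' := by
      funext i
      have := congrFun (congrFun h1 0) i.succ.succ
      fin_cases i <;> exact this
    have ht : t = t' := congrFun (congrFun h1 0) 1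
    have hb : b = b' := by
      funext i
      have := congrFun (congrFun h1 i.succ.succ) 1
      fin_cases i <;> exact this
    rw [ha, ht, hb, Units.ext hA]
  · rintro ⟨g, hg⟩
    have hc := (comm_iff s g hs).1 hg
    obtain ⟨h0, h1, h2⟩ := entry_of_comm _ hc
    have hd := det_of_shape _ h0 h1
    rw [g.2] at hd
    have hg00 : (g : M5) 0 0 = 1 := by
      generalize (g : M5) 0 0 = d at hd
      revert hd
      generalize ((g : M5) 1 1 * (block3 (g : M5)).det) = e
      revert d e
      decide
    have hblock : (block3 (g : M5)).det = 1 := by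
      rw [h2, hg00] at hd
      simpa using hd.symm
    have hunit : IsUnit (block3 (g : M5)) := by
      rw [Matrix.isUnit_iff_isUnit_det, hblock]
      exact isUnit_one
    obtain ⟨A, hA⟩ := hunit
    refine ⟨⟨A, fun j => (g : M5) 0 j.succ.succ, (g : M5) 0 1, fun i => (g : M5) i.succ.succ 1⟩, ?_⟩
    apply Subtype.ext
    apply Subtype.ext
    ext i j
    have hAe : ∀ i j : Fin 3, (A : M3) i j = (g : M5) i.succ.succ j.succ.succ := by
      intro i j
      rw [hA]
      rfl
    show build (A : M3) _ _ _ i j = (g : M5) i j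
    have h00 := hg00
    have h11 : (g : M5) 1 1 = 1 := by rw [h2, hg00]
    have h0' : ∀ i : Fin 4, (g : M5) i.succ 0 = 0 := h0
    fin_cases i <;> fin_cases j
    all_goals first
      | rfl
      | exact (hAe 0 0)
      | exact (hAe 0 1)
      | exact (hAe 0 2)
      | exact (hAe 1 0)
      | exact (hAe 1 1)
      | exact (hAe 1 2)
      | exact (hAe 2 0)
      | exact (hAe 2 1)
      | exact (hAe 2 2)
      | exact h00.symm
      | exact h11.symm
      | exact (h0' 0).symm
      | exact (h0' 1).symm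
      | exact (h0' 2).symm
      | exact (h0' 3).symm
      | exact (h1 0).symm
      | exact (h1 1).symm
      | exact (h1 2).symm

end Cfsg.Agent.Lib.SL5
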